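import Mathlib
import Cfsg.Prelude.Def_Blocks
import Cfsg.Agent.CharactersDeep.NormalSylow
import Cfsg.Agent.H656.PM2Local
set_option linter.all false

/-!
# The local structure of a group with a faithful irreducible character of degree `p - 2`

`P` is a nonnormal Sylow `p`-subgroup of order `p > 5` and the group has a faithful irreducible
character of degree `p - 2`. Then `C_G(P) = P × Z(G)` and `|N_G(P) : C_G(P)| = 2`.
-/

set_option autoImplicit false
set_option linter.unusedSectionVars false
set_option linter.unusedVariables false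

namespace Cfsg.Agent.H656.PM2Centre

open Cfsg ZMod
open scoped ComplexConjugate
open Cfsg.Agent.Blocks.Basic
open Cfsg.Agent.H593.D1Local
open Cfsg.Agent.H593.D1Sec
open Cfsg.Agent.H593.D1Gram
open Cfsg.Agent.H593.D1Block
open Cfsg.Agent.H593.D1Block2
open Cfsg.Agent.Characters.Core (isIrr_isCharacter isCharacter_apply_inv isIrr_comp
  isCharacter_comp classInner_irr_self classInner_irr_ne isIrr_iff_classInner_self
  isIrr_isClassFunction finite_irr classFunction_eq_sum isCharacter_mul classInner_isNat
  isIrr_apply_one)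

variable {G : Type*} [Group G] [Fintype G] {p : ℕ} [hp : Fact p.Prime] {K : Subgroup G}

/-- A subgroup of order `p` contains an element of order `p`. -/
theorem exists_gen {P : Subgroup G} (h : Loc p P K) : ∃ z ∈ P, z ≠ 1 ∧ orderOf z = p := by
  obtain ⟨z, hzP, hz1⟩ : ∃ z ∈ P, z ≠ 1 := by
    by_contra hcon
    push Not at hcon
    have : P = ⊥ := (Subgroup.eq_bot_iff_forall _).2 hcon
    have h1 := h.card
    rw [this, Subgroup.card_bot] at h1
    exact hp.out.one_lt.ne h1
  exact ⟨z, hzP, hz1, h.mem_pow hzP hz1⟩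

/-- The index of `L` in `K` divides `p - 1`. -/
theorem index_dvd {P : Subgroup G} (h : Loc p P K) : (LL P K).index ∣ p - 1 := by
  classical
  obtain ⟨z, hzP, hz1, hz⟩ := exists_gen h
  obtain ⟨ψ, hψ⟩ := exists_hom h hz hzP
  have h1 := card_map h hz hzP hψ ⊤
  rw [Subgroup.relIndex_top_right] at h1
  rw [← h1, ← ZMod.card_units p, ← Nat.card_eq_fintype_card]
  exact Subgroup.card_subgroup_dvd_card _

/-- If the restriction of an irreducible character to a group commuting with `x` is irreducible, then
`x` acts as a scalar. -/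
theorem commutator_mem_ker {A : Type*} [Group A] [Finite A] (f : A →* G) {χ : G → ℂ}
    (hχ : IsIrrCharacter G χ) (hres : IsIrrCharacter A (χ ∘ f)) {x : G}
    (hx : ∀ a, Commute x (f a)) (g : G) : χ (x * g * x⁻¹ * g⁻¹) = χ 1 := by
  classical
  have := Fintype.ofFinite A
  obtain ⟨n, ρ, hρ, rfl⟩ := hχ
  have h1 : Representation.IsIrreducible (ρ.comp f) := by
    apply Cfsg.Agent.Characters.Core.isIrreducible_of_isIrrCharacter
    exact hres
  obtain ⟨c, hc⟩ := Cfsg.Agent.Characters.Central.exists_smul_of_comm (ρ.comp f) h1 (ρ x) (fun a => by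
    rw [MonoidHom.comp_apply, ← map_mul, ← map_mul, (hx a).eq])
  have h3 : ρ x * ρ g = ρ g * ρ x := by
    rw [hc]
    ext v
    simp
  have h4 : ρ (x * g * x⁻¹ * g⁻¹) = 1 := by
    rw [map_mul, map_mul, map_mul, h3, mul_assoc (ρ g), ← map_mul ρ x, mul_inv_cancel, map_one,
      mul_one, ← map_mul, mul_inv_cancel, map_one]
  unfold Representation.character
  rw [h4, map_one ρ]

theorem mem_center_of_forall {ζ : G → ℂ} (hfaith : ∀ g : G, ζ g = ζ 1 → g = 1) {x : G}
    (hx : ∀ g, ζ (x * g * x⁻¹ * g⁻¹) = ζ 1) : x ∈ Subgroup.center G := by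
  rw [Subgroup.mem_center_iff]
  intro g
  have h2 : x * g * x⁻¹ * g⁻¹ = 1 := hfaith _ (hx g)
  calc g * x = (x * g * x⁻¹ * g⁻¹)⁻¹ * (x * g) := by group
    _ = x * g := by rw [h2]; group

/-- A central Sylow subgroup is normal. -/
theorem normal_of_le_center {P : Subgroup G} (hP : P ≤ Subgroup.center G) : P.Normal := by
  refine ⟨fun x hx g => ?_⟩
  rw [Subgroup.mem_center_iff.1 (hP hx) g, mul_assoc, mul_inv_cancel, mul_one]
  exact hx

theorem arith {p H t e : ℕ} {ε n : ℤ} (hp : p.Prime) (h5 : 5 < p) (h1 : p - 2 = H * t)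
    (he : e ∣ p - 1) (hε : ε = 1 ∨ ε = -1)
    (h3 : ((p - 2 : ℕ) : ℤ) = p * n + ε * t ∨ ((p - 2 : ℕ) : ℤ) = p * n + ε * (e * t)) :
    H = 1 ∨ (t = 1 ∧ e = 2) := by
  have hodd : Odd p := hp.odd_of_ne_two (by omega)
  obtain ⟨r, hr⟩ := hodd
  have hHt : 0 < H * t := by omega
  have hH : 0 < H := Nat.pos_of_mul_pos_right hHt
  have ht : 0 < t := Nat.pos_of_mul_pos_left hHt
  have hep : 0 < e := Nat.pos_of_dvd_of_pos he (by omega)
  have hele : e ≤ p - 1 := Nat.le_of_dvd (by omega) he
  have hHle : H ≤ p - 2 := by rw [h1]; exact Nat.le_mul_of_pos_right _ ht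
  have htle : t ≤ p - 2 := by rw [h1]; exact Nat.le_mul_of_pos_left _ hH
  have hcast : ((p - 2 : ℕ) : ℤ) = p - 2 := by push_cast [Nat.cast_sub (by omega : 2 ≤ p)]; ring
  have h1' : (p : ℤ) - 2 = H * t := by rw [← hcast, h1]; push_cast; ring
  rw [hcast] at h3
  rcases h3 with h3 | h3
  · left
    rcases hε with hε | hε
    · rw [hε] at h3
      have h4 : (p : ℤ) ∣ t + 2 := ⟨1 - n, by linear_combination -h3⟩
      have h5 : p ∣ t + 2 := by exact_mod_cast h4
      have h6 := Nat.le_of_dvd (by omega) h5
      have h7 : t = p - 2 := by omega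
      rw [← h7] at h1
      exact (Nat.mul_eq_right (by omega)).1 h1.symm
    · rw [hε] at h3
      have h4 : (p : ℤ) ∣ t - 2 := ⟨n - 1, by linear_combination h3⟩
      have h5 : (t : ℤ) - 2 = 0 := by
        apply Int.eq_zero_of_abs_lt_dvd h4
        rw [abs_lt]
        constructor <;> omega
      have h6 : t = 2 := by omega
      rw [h6] at h1
      omega
  · have h4 : (p : ℤ) ∣ H - ε * e := by
      have h5 : (p : ℤ) ∣ 2 * (H - ε * e) := by
        refine ⟨H * (1 - n) - ε * e, ?_⟩
        linear_combination (-(H : ℤ)) * h3 + (ε * e) * h1'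
      have h6 : IsCoprime (p : ℤ) 2 := by
        rw [Int.isCoprime_iff_gcd_eq_one]
        have : Nat.Coprime p 2 := by
          rw [Nat.coprime_comm, Nat.prime_two.coprime_iff_not_dvd]
          omega
        exact_mod_cast this
      exact h6.dvd_of_dvd_mul_left h5
    rcases hε with hε | hε
    · left
      rw [hε, one_mul] at h4
      have h5 : (H : ℤ) - e = 0 := by
        apply Int.eq_zero_of_abs_lt_dvd h4
        rw [abs_lt]
        constructor <;> omega
      have h6 : H = e := by omega
      have h7 : H ∣ p - 2 := Dvd.intro _ h1.symm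
      have h8 : H ∣ p - 1 := by rw [h6]; exact he
      have h9 : H ∣ (p - 1) - (p - 2) := Nat.dvd_sub h8 h7
      have h10 : (p - 1) - (p - 2) = 1 := by omega
      rw [h10] at h9
      exact Nat.dvd_one.1 h9
    · rw [hε] at h4
      have h5 : (p : ℤ) ∣ H + e := by
        have : (H : ℤ) - -1 * e = H + e := by ring
        rwa [this] at h4
      have h6 : p ∣ H + e := by exact_mod_cast h5
      obtain ⟨k, hk⟩ := h6
      have hk1 : k = 1 := by
        have : k < 2 := by
          by_contra hcon
          have : p * 2 ≤ p * k := Nat.mul_le_mul_left _ (by omega)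
          omega
        have : 0 < k := by
          rcases Nat.eq_zero_or_pos k with h | h
          · rw [h, mul_zero] at hk; omega
          · exact h
        omega
      rw [hk1, mul_one] at hk
      obtain ⟨f, hf⟩ := he
      have hf0 : 0 < f := by
        rcases Nat.eq_zero_or_pos f with h | h
        · rw [h, mul_zero] at hf; omega
        · exact h
      by_cases hf1 : f = 1
      · left
        rw [hf1, mul_one] at hf
        omega
      · right
        have h7 : 2 * e ≤ p - 1 := by
          rw [hf, mul_comm 2 e]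
          exact Nat.mul_le_mul_left _ (by omega)
        have ht1 : t = 1 := by
          by_contra hcon
          have : H * 2 ≤ H * t := Nat.mul_le_mul_left _ (by omega)
          omega
        rw [ht1, mul_one] at h1
        exact ⟨ht1, by omega⟩

/-- **The local structure.** -/
theorem local_structure (P : Sylow p G) (hP : Nat.card P = p) (h5 : 5 < p)
    (hnn : ¬ (P : Subgroup G).Normal) (ζ : G → ℂ) (hζ : IsIrrCharacter G ζ)
    (hfaith : ∀ g : G, ζ g = ζ 1 → g = 1) (hdeg : charDegree ζ = p - 2) :
    ∃ K : Subgroup G, Loc p (P : Subgroup G) K ∧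
      (∀ l : LL (P : Subgroup G) K, ((l : K) : G) ∈ Subgroup.center G) ∧
      (LL (P : Subgroup G) K).index = 2 := by
  classical
  obtain ⟨K, h⟩ := exists_loc P hP
  have := Fintype.ofFinite K
  have := Fintype.ofFinite (LL (P : Subgroup G) K)
  obtain ⟨θ, H, h1, h2, ε, n, hε, h3⟩ := PM2Local.exists_theta P h ⟨ζ, hζ⟩ (by
    show charDegree ζ < p
    omega)
  have hLs : LL (P : Subgroup G) K ≤ stab h θ := fun l hl => cj_of_mem h ⟨l, hl⟩ θ
  have hei : (LL (P : Subgroup G) K).relIndex (stab h θ) * (stab h θ).index =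
      (LL (P : Subgroup G) K).index := Subgroup.relIndex_mul_index hLs
  have hidx := index_dvd h
  change charDegree ζ = _ at h1
  rw [hdeg] at h1
  have hi : (stab h θ).index = 1 := by
    have h4 : (stab h θ).index ∣ p - 1 := (Dvd.intro_left _ hei).trans hidx
    have h5' : (stab h θ).index ∣ p - 2 := by
      rw [h1]
      exact (Dvd.intro _ rfl).trans (Dvd.intro_left _ rfl)
    have h9 : (stab h θ).index ∣ (p - 1) - (p - 2) := Nat.dvd_sub h4 h5'
    have h10 : (p - 1) - (p - 2) = 1 := by omega
    rw [h10] at h9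
    exact Nat.dvd_one.1 h9
  have htop : stab h θ = ⊤ := Subgroup.index_eq_one.1 hi
  rw [hi, one_mul] at h1
  rw [hi, mul_one] at hei
  have hθ1 := irr_one_eq_charDegree θ.2
  have hval : ∀ l : LL (P : Subgroup G) K, ζ ((l : K) : G) =
      H * (θ : LL (P : Subgroup G) K → ℂ) l := by
    intro l
    have h4 := h2 l
    change _ * ζ ((l : K) : G) = _ at h4
    have h6 : ∀ k : K, (θ : LL (P : Subgroup G) K → ℂ)
        ⟨k * l * k⁻¹, h.normal.conj_mem l l.2 k⟩ = (θ : LL (P : Subgroup G) K → ℂ) l := by
      intro k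
      have h7 : k ∈ stab h θ := by rw [htop]; exact Subgroup.mem_top k
      rw [← cj_apply h k θ l, (mem_stab h).1 h7]
    rw [Finset.sum_congr rfl fun k _ => h6 k, Finset.sum_const, Finset.card_univ, nsmul_eq_mul,
      htop, Subgroup.card_top, Nat.card_eq_fintype_card] at h4
    have h8 : (Fintype.card K : ℂ) ≠ 0 := by exact_mod_cast Fintype.card_ne_zero
    apply mul_left_cancel₀ h8
    rw [h4]
    ring
  have h3' : ((p - 2 : ℕ) : ℤ) = p * n + ε * charDegree (θ : LL (P : Subgroup G) K → ℂ) ∨
      ((p - 2 : ℕ) : ℤ) = p * n + ε * ((LL (P : Subgroup G) K).relIndex (stab h θ) *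
        charDegree (θ : LL (P : Subgroup G) K → ℂ)) := by
    rw [← hdeg]
    rcases h3 with h3 | h3
    · left
      change (charDegree ζ : ℤ) = _ at h3
      rw [h3, hi]
      push_cast
      ring
    · right
      change (charDegree ζ : ℤ) = _ at h3
      rw [h3, hi]
      push_cast
      ring
  have hζ1 : ζ 1 = ((p - 2 : ℕ) : ℂ) := by rw [irr_one_eq_charDegree hζ, hdeg]
  rcases arith hp.out h5 h1 (by rw [hei]; exact hidx) hε h3' with hH | ⟨ht, he⟩
  · exfalso
    apply hnn
    apply normal_of_le_center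
    intro x hx
    apply mem_center_of_forall hfaith
    intro g
    refine commutator_mem_ker (K.subtype.comp (LL (P : Subgroup G) K).subtype) hζ ?_ ?_ g
    · have h4 : ζ ∘ (K.subtype.comp (LL (P : Subgroup G) K).subtype) =
          (θ : LL (P : Subgroup G) K → ℂ) := by
        funext l
        have := hval l
        rw [hH, Nat.cast_one, one_mul] at this
        exact this
      rw [h4]
      exact θ.2
    · intro l
      exact h.comm hx (mem_LL.1 l.2)
  · refine ⟨K, h, ?_, by rw [← hei, he]⟩
    intro l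
    apply mem_center_of_forall hfaith
    intro g
    refine Cfsg.Agent.CharactersDeep.NormalSylow.apply_commutator_eq hζ hζ1 ?_ g
    rw [hval, norm_mul, Cfsg.Agent.CharactersDeep.NormalSylow.norm_eq_one_of_degree_one θ.2
      (by rw [hθ1, ht, Nat.cast_one]), mul_one, h1, ht, mul_one, Complex.norm_natCast]

end Cfsg.Agent.H656.PM2Centre
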